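import Cfsg.Agent.H39.FusionMain
import Cfsg.Agent.PLocal.PConstrained
set_option linter.all false

/-!
# Control of strong fusion from constrained sections
-/

set_option autoImplicit false

namespace Cfsg.Agent.H39

open Subgroup Cfsg

universe u

/-- If `𝓦` controls strong fusion in every section `X` of `G` with `C_X(O_p(X)) ≤ O_p(X)` then it
controls strong fusion in every section of `G`. -/
theorem fc_of_constrained {G : Type u} [Group G] [Finite G] {p : ℕ} [Fact p.Prime]
    {𝓦 : Set Fn.{u}} (h𝓦 : ∀ W ∈ 𝓦, IsCharPFunctor.{u} p W)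
    (hcon : ∀ (X : Type u) [Group X] [Finite X], IsSec G X →
      centralizer (pCore p X : Set X) ≤ pCore p X → FC p 𝓦 X)
    (X : Type u) [Group X] [Finite X] (hX : IsSec G X) : FC p 𝓦 X := by
  have key : ∀ n : ℕ, ∀ (X : Type u) [Group X] [Finite X], Nat.card X = n → IsSec G X → FC p 𝓦 X := by
    intro n
    induction n using Nat.strong_induction_on with
    | _ n ih =>
    intro X _ _ hn hX
    by_cases hc : centralizer (pCore p X : Set X) ≤ pCore p X
    · exact hcon X hX hc
    · exact fc_red h𝓦 (fun Y _ _ hY hlt => ih (Nat.card Y) (by omega) Y rfl (hX.trans hY)) hc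
  exact key _ X rfl hX

/-- Version with quotients `K ⧸ R.subgroupOf K`. -/
theorem fc_of_constrained' {G : Type u} [Group G] [Finite G] {p : ℕ} [Fact p.Prime]
    {𝓦 : Set Fn.{u}} (h𝓦 : ∀ W ∈ 𝓦, IsCharPFunctor.{u} p W)
    (hcon : ∀ (K R : Subgroup G) [_hR : (R.subgroupOf K).Normal],
      centralizer ((pCore p (↥K ⧸ R.subgroupOf K) : Subgroup (↥K ⧸ R.subgroupOf K)) :
        Set (↥K ⧸ R.subgroupOf K)) ≤ pCore p (↥K ⧸ R.subgroupOf K) → FC p 𝓦 (↥K ⧸ R.subgroupOf K))
    (X : Type u) [Group X] [Finite X] (hX : IsSec G X) : FC p 𝓦 X := by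
  refine fc_of_constrained h𝓦 (fun Y _ _ hY hc => ?_) X hX
  obtain ⟨K, R, hn, ⟨e⟩⟩ := hY.exists_quotient
  exact (hcon K R (PLocal.PConstrained.charP_congr e.symm hc)).of_equiv h𝓦 e

end Cfsg.Agent.H39

namespace Cfsg.Agent.H39

open Subgroup Cfsg

universe u

/-- A factorization `X = N(W₁(S)) N(W₂(S))` gives control of strong fusion by `{W₁, W₂}`. -/
theorem fc_of_factor {X : Type u} [Group X] [Finite X] {p : ℕ} [Fact p.Prime] {W₁ W₂ : Fn.{u}}
    (h₁ : IsCharPFunctor.{u} p W₁) (h₂ : IsCharPFunctor.{u} p W₂)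
    (hfac : ∀ T : Sylow p X, ∀ x : X,
      ∃ a ∈ normalizer ((inducedFunctor (G := X) W₁ (T : Subgroup X) : Subgroup X) : Set X),
      ∃ b ∈ normalizer ((inducedFunctor (G := X) W₂ (T : Subgroup X) : Subgroup X) : Set X), x = a * b) :
    FC p {W₁, W₂} X := by
  intro S A g _ hA hg
  have c₁ := isConjugacyFunctor_induced (X := X) h₁
  have c₂ := isConjugacyFunctor_induced (X := X) h₂
  refine factorization S (rel_mv StepsI.inv)
    (H := normalizer ((inducedFunctor (G := X) W₂ (S : Subgroup X) : Subgroup X) : Set X))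
    (N := normalizer ((inducedFunctor (G := X) W₁ (S : Subgroup X) : Subgroup X) : Set X))
    (le_normalizer_functor c₂ S.isPGroup') (le_normalizer_functor c₁ S.isPGroup') (hfac S) ?_ ?_ hA hg
  · intro A hA h hh hAh
    exact Mv.base hA hAh ⟨W₂, by simp, mem_top _, hh⟩
  · intro A hA h hh hAh
    exact Mv.base hA hAh ⟨W₁, by simp, mem_top _, hh⟩

end Cfsg.Agent.H39
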